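import Cfsg.Agent.BS.Z1
import Cfsg.Agent.BS.B3
import Cfsg.Agent.H4.Zass2

/-! Feit's theorem on Zassenhaus groups. -/

set_option autoImplicit false
set_option linter.unusedSectionVars false

namespace Cfsg.BS

open Subgroup MulAction Cfsg.L0 Cfsg.H8 Cfsg.FT Cfsg.H4

universe u v

/-- the conclusion of Feit's theorem -/
def FeitC (X : Type u) [Group X] (h e : ℕ) : Prop :=
  h - 1 ≤ 2 * e ∨ (IsPGroup 2 X ∧ (∃ u v : X, u * v ≠ v * u) ∧
    (_root_.commutator X).index ≤ 4 * e ^ 2 + 1)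

theorem FeitC.map {X : Type u} {Y : Type v} [Group X] [Group Y] {h e e' : ℕ} (c : FeitC X h e')
    (f : X ≃* Y) (he : e' ≤ e) : FeitC Y h e := by
  rcases c with c | ⟨c1, ⟨u, v, c2⟩, c3⟩
  · exact .inl (by omega)
  refine .inr ⟨c1.of_equiv f, ⟨f u, f v, fun e => c2 (f.injective (by simpa using e))⟩, ?_⟩
  have : _root_.commutator Y = (_root_.commutator X).map f := by
    rw [map_commutator_eq, MonoidHom.range_eq_top.2 f.surjective]; rfl
  rw [this, index_map_of_bijective f.bijective]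
  nlinarith [Nat.pow_le_pow_left he 2]

section
variable {G : Type} [Group G] [Finite G] {Ω : Type v} [MulAction G Ω] [Fintype Ω] {h e : ℕ}
  {a : Ω} {H N : Subgroup G}

theorem zass_trans {M : Subgroup G} (Z : Zass G Ω h e) (hM : M ≠ ⊥)
    (h2 : ∀ {a b c d : Ω}, a ≠ b → c ≠ d → ∃ g ∈ 𝒩 M, g • a = c ∧ g • b = d) (x y : Ω) :
    ∃ n ∈ M, n • x = y := by
  obtain ⟨n, hn, n1⟩ := exists_ne_one hM
  obtain ⟨c, hc⟩ := not_forall.1 (mt Z.eq_one_of_forall n1)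
  by_cases e : x = y
  · exact ⟨1, M.one_mem, by rw [one_smul, e]⟩
  obtain ⟨g, hg, h3, h4⟩ := h2 (Ne.symm hc) e
  exact ⟨_, conj_mem_of_norm hg hn, by rw [mul_smul, mul_smul, ← h3, inv_smul_smul, h4]⟩

theorem zass_exists (Z : Zass G Ω h e) (K : ZKer a H) [hN : N.Normal] (h0 : N ≠ ⊥) :
    ∃ u ∈ N, u • a = a ∧ u ∉ H := by
  by_contra! hc
  have tr := zass_trans Z h0 fun h1 h2 => (Z.two h1 h2).imp fun g hg =>
    ⟨normalizer_eq_top N ▸ trivial, hg⟩
  obtain ⟨M, -, hM, -, cp⟩ := H5.exists_frobenius_kernel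
    (H := (stabilizer G a).subgroupOf N) fun g hg x hx e =>
      Subtype.ext (K.ti hg (hc x x.2 hx) e)
  have key : ∀ x, x ∈ M.map N.subtype ↔ x ∈ N ∧ (x = 1 ∨ ∀ c : Ω, x • c ≠ c) := fun x => by
    refine ⟨?_, fun ⟨h1, h2⟩ => ⟨⟨x, h1⟩, (hM _).2 (h2.imp Subtype.ext fun h2 g e =>
      h2 ((g : G) • a) ?_), rfl⟩⟩
    · rintro ⟨x, hx, rfl⟩
      refine ⟨x.2, ((hM x).1 hx).imp (congrArg _) fun h2 c e => ?_⟩
      obtain ⟨g, hg, rfl⟩ := tr a c
      exact h2 ⟨g, hg⟩ (show (g⁻¹ * x * g) • a = a by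
        rw [mul_smul, mul_smul, inv_smul_eq_iff]; exact e)
    · have : ((g : G)⁻¹ * x * g) • a = a := e
      rwa [mul_smul, mul_smul, inv_smul_eq_iff] at this
  obtain ⟨c, hc⟩ := Z.noreg (M.map N.subtype) ⟨fun x hx g => (key _).2 ⟨hN.conj_mem x
    ((key x).1 hx).1 g, ((key x).1 hx).2.imp (by rintro rfl; simp) fun h2 c e => h2 (g⁻¹ • c) (by
      rwa [mul_smul, mul_smul, smul_eq_iff_eq_inv_smul] at e)⟩⟩ (by
    have : ∀ y, ∃ m ∈ M.map N.subtype, m • a = y := fun y => by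
      obtain ⟨g, hg, rfl⟩ := tr a y
      obtain ⟨⟨m, s⟩, e⟩ := (cp.existsUnique ⟨g, hg⟩).exists
      refine ⟨_, mem_map_of_mem _ m.2, ?_⟩
      rw [← show ((m : N) : G) * (s : N) = g from congrArg Subtype.val e, mul_smul,
        show ((s : N) : G) • a = a from s.2]; rfl
    refine ⟨fun x y => ?_⟩
    obtain ⟨m, hm, rfl⟩ := this x
    obtain ⟨n, hn, rfl⟩ := this y
    exact ⟨⟨n * m⁻¹, mul_mem hn (inv_mem hm)⟩, by simp [mul_smul]⟩)
  obtain ⟨x, hx, x1⟩ := exists_ne_one hc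
  exact ((key x).1 x.2).2.elim (fun e => x1 (Subtype.ext e)) fun e => e c hx

theorem zass_le (Z : Zass G Ω h e) (K : ZKer a H) [hN : N.Normal] (h0 : N ≠ ⊥) : H ≤ N := by
  obtain ⟨u, hu, h1, h2⟩ := zass_exists Z K h0
  intro y hy
  obtain ⟨x, e⟩ := (Finite.injective_iff_surjective (f := fun x : H =>
    (⟨x * (u * x⁻¹ * u⁻¹), H.mul_mem x.2 (K.conj_mem h1 (H.inv_mem x.2))⟩ : H))).1
    (fun x y e => by_contra fun ne => h2 (Z.mem_of_comm K (u := (y : G)⁻¹ * x)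
      (H.mul_mem (H.inv_mem y.2) x.2) (fun e => ne (Subtype.ext (inv_mul_eq_one.1 e).symm)) (by
        have e : (x : G) * (u * (x : G)⁻¹ * u⁻¹) = y * (u * (y : G)⁻¹ * u⁻¹) :=
          congrArg Subtype.val e
        calc _ = (y : G)⁻¹ * (x * (u * (x : G)⁻¹ * u⁻¹)) * u * x := by group
          _ = _ := by rw [e]; group))) ⟨y, hy⟩
  have e : (x : G) * (u * (x : G)⁻¹ * u⁻¹) = y := congrArg Subtype.val e
  have := N.mul_mem (hN.conj_mem u hu x) (N.inv_mem hu)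
  rw [← e]; simpa [mul_assoc] using this

theorem zass_sub (Z : Zass G Ω h e) [hN : N.Normal] (h0 : N ≠ ⊥) :
    ∃ e', e' ∣ e ∧ Zass N Ω h e' := by
  have : Nonempty Ω := Fintype.card_pos_iff.1 (Z.card_eq ▸ h.succ_pos)
  obtain ⟨a⟩ := this
  obtain ⟨H, K⟩ := Z.exists_zker a
  obtain ⟨u, hu, u1, u2⟩ := zass_exists Z K h0
  obtain ⟨b, hb, u3⟩ := K.exists_fix u1 u2
  have tr := zass_trans Z h0 fun h1 h2 => (Z.two h1 h2).imp fun g hg =>
    ⟨normalizer_eq_top N ▸ trivial, hg⟩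
  have two : ∀ {x y c d : Ω}, x ≠ y → c ≠ d → ∃ g ∈ N, g • x = c ∧ g • y = d := by
    intro x y c d h1 h2
    obtain ⟨m, hm, rfl⟩ := tr a x
    obtain ⟨n, hn, rfl⟩ := tr a c
    obtain ⟨w, hw, e⟩ := Z.exists_smul_ker K (b := m⁻¹ • y) (c := n⁻¹ • d)
      (fun e => h1 (by rw [← e, smul_inv_smul])) fun e => h2 (by rw [← e, smul_inv_smul])
    exact ⟨n * w * m⁻¹, N.mul_mem (N.mul_mem hn (zass_le Z K h0 hw)) (N.inv_mem hm),
      by rw [mul_smul, mul_smul, inv_smul_smul, K.fix hw], by rw [mul_smul, mul_smul, e, smul_inv_smul]⟩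
  have two' : ∀ {x y c d : Ω}, x ≠ y → c ≠ d → ∃ g : N, g • x = c ∧ g • y = d := fun h1 h2 =>
    let ⟨g, hg, e⟩ := two h1 h2; ⟨⟨g, hg⟩, e⟩
  refine ⟨Nat.card (stabilizer N a ⊓ stabilizer N b : Subgroup N), ?_, Z.card_eq, two',
    fun h1 h2 h3 h4 h5 h6 => Subtype.ext (Z.three h1 h2 h3 h4 h5 h6), fun hcd => ?_, ?_, Z.two_le,
    fun M hM t => ?_⟩
  · rw [← Z.card_two hb.symm, ← card_map_of_injective N.subtype_injective]
    exact card_dvd (by rintro _ ⟨x, hx, rfl⟩; exact hx)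
  · obtain ⟨g, rfl, rfl⟩ := two' hb.symm hcd
    rw [card_stab_two_eq]
  · exact one_lt_card (ne_bot_of_mem (x := ⟨u, hu⟩) ⟨u1, u3⟩ fun e =>
      u2 ((show u = 1 from congrArg Subtype.val e) ▸ H.one_mem))
  by_contra! reg
  set M' := M.map N.subtype
  have le : M' ≤ N := map_subtype_le M
  have n1 : N ≤ 𝒩 M' := fun g hg => mem_norm_of_cj_le fun x hx => by
    obtain ⟨y, hy, e⟩ := mem_cj.1 hx
    exact ⟨_, hM.conj_mem y hy ⟨g, hg⟩, by simp [show (y : G) = _ from e, mul_assoc]⟩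
  have r1 : ∀ x ∈ M', ∀ c : Ω, x • c = c → x = 1 := by
    rintro _ ⟨x, hx, rfl⟩ c e
    exact congrArg (fun y : M => ((y : N) : G)) (eq_one_of_mem (x := ⟨x, hx⟩) (reg c) e)
  have t1 : ∀ c d : Ω, ∃ x ∈ M', x • c = d := fun c d =>
    let ⟨x, e⟩ := t.exists_smul_eq c d; ⟨_, mem_map_of_mem _ x.2, e⟩
  suffices M'.Normal by
    obtain ⟨c, hc⟩ := Z.noreg M' this ⟨fun c d => let ⟨x, hx, e⟩ := t1 c d; ⟨⟨x, hx⟩, e⟩⟩
    obtain ⟨x, hx, x1⟩ := exists_ne_one hc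
    exact x1 (Subtype.ext (r1 x x.2 c hx))
  refine ⟨fun x hx g => ?_⟩
  have n2 : N ≤ 𝒩 (cj g M') := by
    rw [← cj_norm, ← cj_eq_of_mem_norm (show g ∈ 𝒩 N from normalizer_eq_top N ▸ trivial)]
    exact cj_mono g n1
  have l2 : cj g M' ≤ N := fun y hy => by
    simpa [mul_assoc] using hN.conj_mem _ (le (mem_cj.1 hy)) g
  have r2 : ∀ x ∈ cj g M', ∀ c : Ω, x • c = c → x = 1 := fun x hx c e => eq_one_of_conj'
    (r1 _ (mem_cj.1 hx) (g⁻¹ • c) (by rw [mul_smul, mul_smul, smul_inv_smul, e]))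
  by_cases e : M' ⊓ cj g M' = ⊥
  · exfalso
    have cm := le_cent_of_inf_eq_bot (le.trans n2) (l2.trans n1) e
    obtain ⟨y, hy, y1, m, hm, m1, m2, e'⟩ : ∃ y ∈ M', y ≠ 1 ∧ ∃ m ∈ M', m ≠ 1 ∧ m ≠ y ∧
        y * m = m * y := by
      by_cases e : ∀ y ∈ M', y * y = 1
      · obtain ⟨c, h1, h2⟩ := Z.exists_ne_ne a b
        obtain ⟨y, hy, rfl⟩ := t1 a b
        obtain ⟨m, hm, rfl⟩ := t1 a c
        refine ⟨y, hy, fun e => hb (by simp [e]), m, hm, fun e => h1 (by simp [e]),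
          fun e => h2 (by rw [e]), ?_⟩
        rw [← inv_eq_of_mul_eq_one_right (e _ (M'.mul_mem hy hm)), mul_inv_rev,
          inv_eq_of_mul_eq_one_right (e y hy), inv_eq_of_mul_eq_one_right (e m hm)]
      · push Not at e
        obtain ⟨y, hy, e⟩ := e
        have : y ≠ 1 := fun e' => e (by simp [e'])
        exact ⟨y, hy, this, _, M'.mul_mem hy hy, e, by simpa using this, by group⟩
    obtain ⟨x, hx, e1⟩ := t1 (g⁻¹ • a) (g⁻¹ • y • a)
    have hx' : g * x * g⁻¹ ∈ cj g M' := mem_cj.2 (by simpa [mul_assoc] using hx)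
    have e2 : (g * x * g⁻¹) • a = y • a := by rw [mul_smul, mul_smul, e1, smul_inv_smul]
    generalize g * x * g⁻¹ = x at hx' e2
    have fx : ∀ m ∈ M', y * m = m * y → (y⁻¹ * x) • m • a = m • a := fun m hm e => by
      rw [mul_smul, inv_smul_eq_iff, ← mul_smul, mem_cent.1 (cm hm) x hx', mul_smul, e2, ← mul_smul,
        ← mul_smul, e]
    have ne : ∀ m ∈ M', ∀ n ∈ M', m ≠ n → m • a ≠ n • a := fun m hm n hn h1 h2 =>
      h1 (inv_mul_eq_one.1 (r1 _ (M'.mul_mem (M'.inv_mem hn) hm) a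
        (by rw [mul_smul, h2, inv_smul_smul]))).symm
    have := Z.three (ne 1 M'.one_mem y hy y1.symm) (ne y hy m hm m2.symm)
      (ne 1 M'.one_mem m hm m1.symm) (fx 1 M'.one_mem (by simp)) (fx y hy rfl) (fx m hm e')
    exact y1 (eq_one_of_mem e ⟨hy, inv_mul_eq_one.1 this ▸ hx'⟩)
  · have hx' : g * x * g⁻¹ ∈ cj g M' := mem_cj.2 (by simpa [mul_assoc] using hx)
    obtain ⟨n, hn, e'⟩ := zass_trans Z e (fun h1 h2 => (two h1 h2).imp fun g hg =>
      ⟨le_norm_inf n1 n2 hg.1, hg.2⟩) a ((g * x * g⁻¹) • a)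
    rw [← inv_mul_eq_one.1 (r2 _ (mul_mem (inv_mem hn.2) hx') a
      (by rw [mul_smul, ← e', inv_smul_smul]))]
    exact hn.1

theorem feit_simple (hFT : OddOrder) (hig : Higman) [hs : IsSimpleGroup G] (Z : Zass G Ω h e)
    (ho : Odd e) (K : ZKer a H) : FeitC H h e := by
  classical
  obtain ⟨b, hb⟩ := Z.exists_ne a
  obtain ⟨t, t1, t2⟩ := Z.two hb.symm hb
  have hO := Z.noOdd
  have t3 : t * t = 1 := by rw [← pow_two, ← Z.orderOf_swap hO ho hb.symm t1 t2, pow_orderOf_eq_one]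
  have ti : t⁻¹ = t := inv_eq_of_mul_eq_one_right t3
  have inv := fun y => Z.inverts (y := y) hO ho hb.symm t1 t2
  rw [ti] at inv
  have cD := Z.card_two hb.symm
  have cQ := Z.card_ker K
  have cB := Z.card_stab a
  set B := stabilizer G a
  set D := B ⊓ stabilizer G b
  have mem : ∀ x, x ∈ D ↔ x ∈ B ∧ t * x * t ∈ B := fun x => and_congr_right fun _ => by
    show x • b = b ↔ (t * x * t) • a = a
    rw [mul_smul, mul_smul, t1, smul_eq_iff_eq_inv_smul t, ti, t1]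
  have dec : ∀ g, g ∉ B → ∃ x ∈ B, ∃ y ∈ B, g = x * t * y := fun g hg => by
    obtain ⟨x, hx, e⟩ := Z.exists_smul_ker K hb hg
    exact ⟨x, K.le hx, t * x⁻¹ * g, show _ • a = a by rw [mul_smul, mul_smul, ← e, inv_smul_smul, t2],
      by simp [mul_assoc, ← mul_assoc t t, t3]⟩
  have QD : H ⊓ D = ⊥ := eq_bot_iff.2 fun x hx => K.eq_one_of_fix hx.1 hb hx.2.2
  have nD : D ≤ 𝒩 H := inf_le_left.trans K.stab_le_normalizer
  have sd : SD H D B := ⟨eq_of_card_le (sup_le K.le inf_le_left)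
    (by rw [card_sup_of_inf nD QD, cQ, cD, cB]), nD, QD⟩
  have reg : Reg H D := reg_iff.2 fun d hd x hx e => or_iff_not_imp_right.2 fun x1 =>
    eq_one_of_mem QD ⟨Z.mem_of_comm K hx x1 e, hd⟩
  have ti' : ∀ g, ∀ x ∈ H, x ≠ 1 → g * x * g⁻¹ ∈ B → g ∈ B := fun g x hx x1 e =>
    by_contra fun hg => x1 (K.ti hg hx e)
  have e1 := Z.one_lt
  obtain ⟨d, hd, d1⟩ := Z.exists_ne_one hb.symm
  have nil : Nil H := by
    obtain ⟨R, h1, h2⟩ := exists_el1 (ne_bot_of_mem (H := D) d1 hd)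
    obtain ⟨r, hr, r1⟩ := exists_ne_one (ne_bot_of_prime h2)
    exact thompson (h1.trans nD) h2 (eq_bot_of_le (reg r (h1 hr) r1)
      (inf_le_inf_left _ (cent_le_cent1 hr)))
  rcases Nat.even_or_odd h with he | he
  · have hA : A1 B H D t := ⟨t3, fun e => hb (t1.symm.trans e), K.le,
      fun g hg x hx => K.conj_mem hg hx, mem, fun x h1 h2 => eq_one_of_mem QD ⟨h1, h2⟩,
      fun g hg => let ⟨x, hx, y, hy, e⟩ := sd.mem hg; ⟨x, hx, y, hy, e.symm⟩, dec, cQ ▸ he, cD ▸ ho⟩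
    have h3 : A3 B H D t := ⟨hA, (normalCore_normal B).eq_bot_or_eq_top.resolve_right fun e =>
      hA.t_not (normalCore_le B (e ▸ trivial)), by
        have p2 : IsPGroup 2 (Op {2} H) := Op_pgroup Nat.prime_two H
        have h1 := nil.inf_cent_ne_bot (Op_nrm {2} H) ((nil.Op_hall {2}).ne_bot Nat.prime_two rfl
          (cQ ▸ he.two_dvd))
        have p3 : IsPGroup 2 (Op {2} H ⊓ 𝒞 H : Subgroup G) := p2.to_le inf_le_left
        have ab : Abel (Op {2} H ⊓ 𝒞 H) := cent_mono inf_le_right le_rfl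
          (inf_le_left.trans (Op_le _ _))
        have n : D ≤ 𝒩 (Om 2 (Op {2} H ⊓ 𝒞 H)) := (le_norm_inf (le_norm_Op _ nD)
          (le_norm_cent nD)).trans (norm_le_norm_Om _ _)
        have h2 := (reg.mono ((Om_le 2 _).trans (inf_le_left.trans (Op_le _ _))) le_rfl).card_lt n
          (Om_ne_bot Nat.prime_two p3 h1)
        obtain ⟨k, hk⟩ := (ab.elem_Om 2).exists_card Nat.prime_two
        refine ⟨_, abel_iff.1 (ab.elem_Om 2).abel, (ab.elem_Om 2).2, hk ▸ Nat.pow_le_pow_right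
          two_pos (by_contra fun e => ?_)⟩
        rw [hk, cD] at h2
        have : 2 ^ k ≤ 2 ^ 1 := Nat.pow_le_pow_right two_pos (by omega)
        omega⟩
    have hK : ∀ d ∈ D, InK D t d := fun d hd => ⟨hd, inv d hd⟩
    have hV : Vg D t = ⊥ := eq_bot_iff.2 fun v hv => hA.InK_V (hK v (Vg_le hv)) hv
    have KD : Kg D t = D := le_antisymm Kg_le fun d hd => (hK d hd).mem_Kg
    have q := h3.card_Kg hFT
    rw [KD, cD] at q
    obtain ⟨h4, h5⟩ := thmC2 G B H D t h3 hs hV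
    by_cases ab : IsMulCommutative H
    · rw [h5 ab, cQ] at q; exact .inl (by omega)
    obtain ⟨s, r, hd⟩ := hA.exists_dist
    have tr : ∀ x ∈ H, ∀ y ∈ H, x ≠ 1 → y ≠ 1 → x * x = 1 → y * y = 1 →
        ∃ k ∈ D, k * x * k⁻¹ = y := fun x hx y hy x1 y1 x2 y2 => by
      obtain ⟨a, ha, rfl⟩ := hA.exists_conj_dist hd ⟨hx, x1, x2⟩
      obtain ⟨b, hb, rfl⟩ := hA.exists_conj_dist hd ⟨hy, y1, y2⟩
      exact ⟨b * a⁻¹, D.mul_mem hb.1 (D.inv_mem ha.1), by group⟩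
    obtain ⟨-, h6⟩ := hig G H D ⟨h4, KD ▸ h3.cyc_Kg hFT, fun k hk x hx => K.conj_mem hk.1 hx,
      fun k hk x hx e => reg_iff.1 reg k hk x hx e.symm, tr,
      let ⟨x, y, hx, hy, e⟩ := h3.exists_two
      ⟨x, hx.1, y, hy.1, hx.2.1, hy.2.1, e, hx.2.2, hy.2.2⟩⟩ ab
    refine .inr ⟨h4, by_contra fun e => ab ⟨⟨by simpa using e⟩⟩, ?_⟩
    have h7 : Q0 H ≤ ⁅H, H⁆ := fun y hy => by
      obtain ⟨x, hx, x2⟩ := exists_orderOf_eq Nat.prime_two (dvd_card_of_pgroup Nat.prime_two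
        (h4.to_le (der_le H)) (mt (fun e => abel_iff.1 (abel_iff_der.2 e)) ab))
      by_cases y1 : y = 1
      · exact y1 ▸ one_mem _
      obtain ⟨k, hk, rfl⟩ := tr x (der_le H hx) y (Q0_le hy) (by rintro rfl; simp at x2) y1
        (by rw [← pow_two, ← x2, pow_orderOf_eq_one]) (h3.mem_Q0.1 hy).2
      exact conj_mem_of_norm (le_norm_comm nD nD hk) hx
    have h8 : (_root_.commutator H).index = (⁅H, H⁆ : Subgroup G).relIndex H := by
      rw [relIndex, ← H7.commutator_subgroupOf le_rfl le_rfl, subgroupOf_self]; rfl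
    have h9 := Nat.le_of_dvd (ri_pos _ _) (ri_dvd_of_le_left h7 H)
    have h10 := card_mul_ri (Q0_le (Q := H))
    rw [← q] at h6 h10
    have h11 : (Q0 H).relIndex H ≤ (e + 1) ^ 2 := Nat.le_of_mul_le_mul_left (c := e + 1) (by
      rw [h10]; rcases h6 with h6 | h6 <;> rw [h6] <;> nlinarith) e.succ_pos
    rw [h8]; nlinarith
  have oQ : Odd ♯H := cQ ▸ he
  obtain ⟨p, hp, p1⟩ := exists_prime_dvd (ne_bot_of_card (A := H) (by have := Z.two_le; omega))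
  have p2 : p ≠ 2 := fun e => Nat.not_even_iff_odd.2 oQ (even_iff_two_dvd.2 (e ▸ p1))
  have dp := nil.dp {p}
  have le : 𝒵 (Op {p} H) ≤ 𝒵 H := le_inf (inf_le_left.trans dp.le_left) (cent_symm
    (dp.sup.ge.trans (sup_le (cent_symm inf_le_right) (cent_mono dp.cent le_rfl inf_le_left))))
  have oZ := odd_of_le oQ (le.trans inf_le_left)
  have hz : ZH B H D (𝒵 (Op {p} H)) := ⟨sd, ti', (sd.nrm.Op _).ctr, le,
    ctr_ne_bot (nil.mono dp.le_left) ((nil.Op_hall {p}).ne_bot hp rfl p1),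
    reg.mono (le.trans inf_le_left) le_rfl, cD ▸ ho, fun z hz => by
      obtain ⟨y, hy, e⟩ := exists_sqrt_of_odd (oZ.of_dvd_nat (orderOf_dvd hz))
      exact ⟨y, le (zpowers_le.2 hz hy), e⟩⟩
  have h1 := Z.le_card_classes hO ho K
  have := Fintype.ofFinite {C : ConjClasses G // ∀ g : G, ConjClasses.mk g = C → g ∉ H}
  choose f hf using ConjClasses.mk_surjective (α := G)
  have h2 := hz.feit ⟨t3, mem, dec, by rw [Z.card_group, cB, cD]; ring⟩ (cQ ▸ Z.index_stab a) inv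
    (cD ▸ e1) hs (hz.coh_odd nil hp p2 rfl) oZ (insert 1 (Finset.univ.image
      fun C : {C : ConjClasses G // ∀ g : G, ConjClasses.mk g = C → g ∉ H} => f C)) ?_ ?_ ?_
  · exact .inl (cQ ▸ cD ▸ h2)
  · rw [Finset.card_insert_of_notMem (by
      simp only [Finset.mem_image, not_exists]; exact fun C e => C.2 _ (hf C) (e.2 ▸ H.one_mem)),
      Finset.card_image_of_injective _ fun C C' e => Subtype.ext (by
        rw [← hf C, ← hf C']; exact congrArg _ e), Finset.card_univ, ← Nat.card_eq_fintype_card, cD]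
    omega
  · simp only [Finset.forall_mem_insert, Finset.forall_mem_image, Finset.mem_univ, true_imp_iff]
    refine ⟨⟨fun _ => trivial, fun C e => (isConj_one_right.1 e).symm⟩, fun C =>
      ⟨isConj_one_left.1, fun C' e => ?_⟩⟩
    rw [← ConjClasses.mk_eq_mk_iff_isConj, hf, hf] at e
    rw [e]
  · simp only [Finset.forall_mem_insert, Finset.forall_mem_image, Finset.mem_univ, true_imp_iff]
    exact ⟨fun x _ x1 e => x1 (isConj_one_right.1 e), fun C x hx _ e =>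
      C.2 x (by rw [← hf C, ConjClasses.mk_eq_mk_iff_isConj]; exact e.symm) hx⟩

end

theorem feit_zass (hFT : OddOrder) (hig : Higman) {Ω : Type v} [Fintype Ω] {h : ℕ} {a : Ω} (n : ℕ) :
    ∀ (G : Type) [Group G] [Finite G] [MulAction G Ω] (e : ℕ) (H : Subgroup G), Nat.card G = n →
      Zass G Ω h e → Odd e → ZKer a H → FeitC H h e := by
  induction n using Nat.strong_induction_on with | _ n ih => ?_
  intro G _ _ _ e H hn Z ho K
  by_cases hs : IsSimpleGroup G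
  · exact feit_simple hFT hig Z ho K
  obtain ⟨x, y, hxy⟩ := Z.exists_not_comm
  have : Nontrivial G := ⟨_, _, hxy⟩
  obtain ⟨N, hN, h1, h2⟩ : ∃ N : Subgroup G, N.Normal ∧ N ≠ ⊥ ∧ N ≠ ⊤ := by
    by_contra! e
    exact hs ⟨fun N hN => or_iff_not_imp_left.2 (e N hN)⟩
  obtain ⟨e', h3, Z'⟩ := zass_sub Z h1
  refine (ih _ (hn ▸ card_top (G := G) ▸ card_lt (lt_top_iff_ne_top.2 h2)) N e' (H.subgroupOf N) rfl
    Z' (ho.of_dvd_nat h3) ⟨fun u => ?_⟩).map (subgroupOfEquivOfLe (zass_le Z K h1))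
    (Nat.le_of_dvd ho.pos h3)
  rw [mem_subgroupOf, K.mem_iff, OneMemClass.coe_eq_one]; rfl

theorem feit_zass' (hFT : OddOrder) (hig : Higman) {G : Type u} [Group G] [Finite G] {Ω : Type v}
    [Fintype Ω] [MulAction G Ω] {h e : ℕ} {a : Ω} {H : Subgroup G} (Z : Zass G Ω h e) (ho : Odd e)
    (K : ZKer a H) : FeitC H h e := by
  have f := Shrink.mulEquiv.{0} (α := G)
  have : Finite (Shrink.{0} G) := Finite.of_equiv _ f.symm.toEquiv
  let _ := MulAction.compHom Ω f.toMonoidHom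
  have sm : ∀ (g : Shrink.{0} G) (c : Ω), g • c = f g • c := fun _ _ => rfl
  refine (feit_zass hFT hig (a := a) _ (Shrink.{0} G) e (H.comap f.toMonoidHom) rfl
    ⟨Z.card_eq, fun h1 h2 => ?_, fun h1 h2 h3 h4 h5 h6 => f.injective
      ((Z.three h1 h2 h3 h4 h5 h6).trans (map_one f).symm), fun h1 => ?_, Z.one_lt, Z.two_le,
      fun N hN t => ?_⟩ ho ⟨fun u => ?_⟩).map (MulEquiv.ofBijective (f.toMonoidHom.subgroupComap H)
      ⟨fun x y e => Subtype.ext (f.injective (congrArg Subtype.val e)),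
        fun y => ⟨⟨f.symm y, by simp⟩, Subtype.ext (f.apply_symm_apply y)⟩⟩) le_rfl
  · obtain ⟨g, hg⟩ := Z.two h1 h2
    exact ⟨f.symm g, by simpa [sm] using hg⟩
  · rw [← Z.card_two h1]
    exact Nat.card_congr (f.toEquiv.subtypeEquiv fun _ => Iff.rfl)
  · obtain ⟨c, hc⟩ := Z.noreg (N.map f.toMonoidHom) (hN.map _ f.surjective) ⟨fun c d =>
      let ⟨x, e⟩ := t.exists_smul_eq c d; ⟨⟨_, mem_map_of_mem _ x.2⟩, e⟩⟩
    obtain ⟨⟨_, x, hx, rfl⟩, h1, h2⟩ := exists_ne_one hc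
    exact ⟨c, ne_bot_of_mem (x := ⟨x, hx⟩) h1 fun e => h2 (Subtype.ext (by
      simp [show x = 1 from congrArg Subtype.val e]))⟩
  · rw [mem_comap, K.mem_iff]; simp [sm]

end Cfsg.BS
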